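import Cfsg.Agent.Lib.Classical.QuadOmega.Generation

/-!
Crossed homomorphisms of small orthogonal groups over the field with two elements, by certificates:
vectors are encoded by bit masks and elements by their action on the masks.
-/

set_option autoImplicit false

namespace Cfsg.Agent.Lib.OrthCocycle

open QuadraticMap Cfsg.Agent.Lib.Classical.Quad Cfsg.Agent.Lib.Classical.QuadOmega
open scoped Matrix commutatorElement

/-- The letters of a word encoded in binary, the first letter last. -/
def letters : ℕ → ℕ → List Bool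
  | 0, _ => []
  | k + 1, w => if w ≤ 1 then [] else (decide (w % 2 = 1)) :: letters k (w / 2)

/-- The reflection attached to `v`. -/
def rfl' (q : ℕ → Bool) (v x : ℕ) : ℕ := if q (x ^^^ v) == q x then x ^^^ v else x

/-- A product of pairs of reflections. -/
def pairAct (q : ℕ → Bool) (l : List (ℕ × ℕ)) (x : ℕ) : ℕ := l.foldr (fun p y => rfl' q p.1 (rfl' q p.2 y)) x

/-- A word in the two generators. -/
def wordAct (q : ℕ → Bool) (la lb : List (ℕ × ℕ)) (w : List Bool) (x : ℕ) : ℕ :=
  w.foldr (fun c y => pairAct q (if c then lb else la) y) x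

/-- The value of a crossed homomorphism with values `0` and `xb` at the generators. -/
def wordVal (q : ℕ → Bool) (la lb : List (ℕ × ℕ)) (xb : ℕ) (w : List Bool) : ℕ :=
  w.foldr (fun c y => (if c then xb else 0) ^^^ pairAct q (if c then lb else la) y) 0

/-- All pairs consist of two non-orthogonal nonsingular vectors. -/
def goodPairs (n : ℕ) (q : ℕ → Bool) (l : List (ℕ × ℕ)) : Bool :=
  l.all fun p => Nat.blt p.1 (2 ^ n) && Nat.blt p.2 (2 ^ n) && q p.1 && q p.2 && q (p.1 ^^^ p.2) &&
    (List.range n).all fun j =>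
      (rfl' q p.1 (rfl' q p.2 (rfl' q p.1 (rfl' q p.2 (rfl' q p.1 (rfl' q p.2 (2 ^ j))))))) == 2 ^ j

/-- The certificate for generation. -/
def genCheck (n : ℕ) (q : ℕ → Bool) (la lb : List (ℕ × ℕ)) (v0 : ℕ) (gens : List (ℕ × ℕ)) : Bool :=
  q v0 && Nat.blt v0 (2 ^ n) && (List.range (2 ^ n)).all fun v => !q v || gens.any fun p =>
    p.1 == v && (List.range n).all fun j => wordAct q la lb (letters 256 p.2) (2 ^ j) == rfl' q v0 (rfl' q v (2 ^ j))

/-- The certificate for the cocycle: the first generator fixes no non-zero vector and the relations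
force the value zero at the second. -/
def relCheck (n : ℕ) (q : ℕ → Bool) (la lb : List (ℕ × ℕ)) (rels : List (ℕ × ℕ)) : Bool :=
  ((List.range (2 ^ n)).all fun x => x == 0 || pairAct q la x != x) &&
  (rels.all fun w => (List.range n).all fun j => wordAct q la lb (letters 256 w.1) (2 ^ j) == wordAct q la lb (letters 256 w.2) (2 ^ j)) &&
  (List.range (2 ^ n)).all fun xb => xb == 0 || rels.any fun w => wordVal q la lb xb (letters 256 w.1) != wordVal q la lb xb (letters 256 w.2)

section
variable {ι : Type} [Fintype ι] [DecidableEq ι] {n : ℕ} (e : Fin n ≃ ι)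

/-- The vector of a mask. -/
def vec (m : ℕ) : ι → ZMod 2 := fun i => if m.testBit (e.symm i) then 1 else 0

theorem vec_xor (a b : ℕ) : vec e (a ^^^ b) = vec e a + vec e b := by
  funext i
  simp only [vec, Nat.testBit_xor, Pi.add_apply]
  cases a.testBit (e.symm i) <;> cases b.testBit (e.symm i) <;> decide

theorem vec_zero : vec e 0 = 0 := by
  funext i; simp [vec]

theorem vec_single (i : ι) : vec e (2 ^ (e.symm i : ℕ)) = Pi.single i 1 := by
  funext k
  simp only [vec, Nat.testBit_two_pow, Pi.single_apply]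
  by_cases h : k = i
  · simp [h]
  · rw [if_neg, if_neg h]
    simp only [decide_eq_true_eq]
    exact fun hh => h (e.symm.injective (Fin.ext hh.symm))

theorem vec_inj {a b : ℕ} (ha : a < 2 ^ n) (hb : b < 2 ^ n) (h : vec e a = vec e b) : a = b := by
  refine Nat.eq_of_testBit_eq fun j => ?_
  by_cases hj : j < n
  · have := congrFun h (e ⟨j, hj⟩)
    simp only [vec, Equiv.symm_apply_apply] at this
    cases hx : a.testBit j <;> cases hy : b.testBit j <;> simp [hx, hy] at this ⊢
  · have hp : 2 ^ n ≤ 2 ^ j := Nat.pow_le_pow_right (by norm_num) (not_lt.1 hj)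
    rw [Nat.testBit_lt_two_pow (lt_of_lt_of_le ha hp), Nat.testBit_lt_two_pow (lt_of_lt_of_le hb hp)]

theorem vec_surj (x : ι → ZMod 2) : ∃ m, m < 2 ^ n ∧ vec e m = x := by
  have hinj : Function.Injective fun m : Fin (2 ^ n) => vec e m := fun a b h => Fin.ext (vec_inj e a.2 b.2 h)
  have hc : Fintype.card ι = n := by rw [← Fintype.card_congr e, Fintype.card_fin]
  obtain ⟨m, hm⟩ := ((Fintype.bijective_iff_injective_and_card _).2 ⟨hinj, by simp [hc]⟩).2 x
  exact ⟨m, m.2, hm⟩

variable (R : QuadraticForm (ZMod 2) (ι → ZMod 2))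

set_option quotPrecheck false in
local notation "O" => (Cfsg.isometryGroup (ZMod 2) ⇑R)

/-- The matrix of an isometry. -/
abbrev mat (g : O) : Matrix ι ι (ZMod 2) := ((g : Matrix.GeneralLinearGroup ι (ZMod 2)) : Matrix ι ι (ZMod 2))

/-- An isometry acts on masks by the given map. -/
def Act (g : O) (f : ℕ → ℕ) : Prop := ∀ m < 2 ^ n, f m < 2 ^ n ∧ mat R g *ᵥ vec e m = vec e (f m)

variable {e R}

theorem Act.one : Act e R (1 : O) id := fun m hm => ⟨hm, by simp [mat]⟩

theorem Act.mul {g h : O} {f f' : ℕ → ℕ} (hg : Act e R g f) (hh : Act e R h f') : Act e R (g * h) (f ∘ f') := by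
  intro m hm
  obtain ⟨h1, h2⟩ := hh m hm
  obtain ⟨h3, h4⟩ := hg _ h1
  refine ⟨h3, ?_⟩
  show (mat R g * mat R h) *ᵥ _ = _
  rw [← Matrix.mulVec_mulVec, h2, h4]
  rfl

theorem Act.eq {g h : O} {f f' : ℕ → ℕ} (hg : Act e R g f) (hh : Act e R h f')
    (hff : ∀ j < n, f (2 ^ j) = f' (2 ^ j)) : g = h := by
  refine Subtype.ext (Units.ext (Matrix.ext_of_mulVec_single fun i => ?_))
  have hlt : 2 ^ (e.symm i : ℕ) < 2 ^ n := Nat.pow_lt_pow_right (by norm_num) (e.symm i).2
  rw [← vec_single e i]
  show mat R g *ᵥ _ = mat R h *ᵥ _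
  rw [(hg _ hlt).2, (hh _ hlt).2, hff _ (e.symm i).2]

variable {q : ℕ → Bool} (hq : ∀ m < 2 ^ n, R (vec e m) = if q m then 1 else 0)
include hq

theorem refl_act {v : ℕ} (hv : v < 2 ^ n) (hqv : q v = true) :
    Act e R ((matEquiv R).symm (refl R (vec e v))) (rfl' q v) := by
  intro m hm
  have h1 : R (vec e v) = 1 := by rw [hq v hv, hqv]; rfl
  have hne : R (vec e v) ≠ 0 := by rw [h1]; exact one_ne_zero
  have hmv := Nat.xor_lt_two_pow hm hv
  refine ⟨?_, ?_⟩
  · unfold rfl'; split_ifs
    · exact hmv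
    · exact hm
  show mat R _ *ᵥ _ = _
  rw [mat, ← matEquiv_apply, MulEquiv.apply_symm_apply, refl_apply hne, h1, div_one]
  have hp : polar R (vec e m) (vec e v) = if q (m ^^^ v) == q m then 1 else 0 := by
    rw [polar, ← vec_xor, hq _ hmv, hq _ hm, h1]
    cases q (m ^^^ v) <;> cases q m <;> decide
  rw [hp]
  unfold rfl'
  split_ifs
  · rw [one_smul, vec_xor]
    funext i
    exact (by decide : ∀ a b : ZMod 2, a - b = a + b) _ _
  · rw [zero_smul, sub_zero]

omit hq in
/-- The product of pairs of reflections. -/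
noncomputable def pairElt (e : Fin n ≃ ι) (R : QuadraticForm (ZMod 2) (ι → ZMod 2)) (l : List (ℕ × ℕ)) :
    Cfsg.isometryGroup (ZMod 2) ⇑R :=
  (l.map fun p => (matEquiv R).symm (refl R (vec e p.1)) * (matEquiv R).symm (refl R (vec e p.2))).prod

theorem pairElt_spec : ∀ {l : List (ℕ × ℕ)}, goodPairs n q l = true →
    Act e R (pairElt e R l) (pairAct q l) ∧ pairElt e R l ∈ commutator O
  | [], _ => ⟨Act.one, one_mem _⟩
  | p :: l, h => by
    rw [goodPairs, List.all_cons, Bool.and_eq_true] at h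
    obtain ⟨hp, hl⟩ := h
    simp only [Bool.and_eq_true, Nat.blt_eq, List.all_eq_true, List.mem_range, beq_iff_eq] at hp
    obtain ⟨⟨⟨⟨⟨h1, h2⟩, q1⟩, q2⟩, -⟩, h6⟩ := hp
    obtain ⟨hA, hC⟩ := pairElt_spec hl
    have a1 := refl_act hq h1 q1
    have a2 := refl_act hq h2 q2
    refine ⟨(a1.mul a2).mul hA, mul_mem ?_ hC⟩
    set s := (matEquiv R).symm (refl R (vec e p.1))
    set t := (matEquiv R).symm (refl R (vec e p.2))
    have hs : s * s = 1 := by
      rw [← map_mul, refl_mul_self (by rw [hq _ h1, q1]; exact one_ne_zero), map_one]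
    have ht : t * t = 1 := by
      rw [← map_mul, refl_mul_self (by rw [hq _ h2, q2]; exact one_ne_zero), map_one]
    have h3 : (s * t) * (s * t) * (s * t) = 1 := ((a1.mul a2).mul (a1.mul a2)).mul (a1.mul a2) |>.eq Act.one h6
    have hc : ⁅s, t⁆ = (s * t) * (s * t) := by
      rw [commutatorElement_def, inv_eq_of_mul_eq_one_right hs, inv_eq_of_mul_eq_one_right ht, mul_assoc (s * t)]
    have : s * t = ⁅s, t⁆⁻¹ := by rw [hc]; exact eq_inv_of_mul_eq_one_right h3
    show s * t ∈ commutator O
    rw [this]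
    exact inv_mem (Subgroup.commutator_mem_commutator (Subgroup.mem_top _) (Subgroup.mem_top _))

/-- Vanishing of the first cohomology, from certificates. -/
theorem principal (la lb : List (ℕ × ℕ)) (v0 : ℕ) (gens : List (ℕ × ℕ)) (rels : List (ℕ × ℕ))
    (hla : goodPairs n q la = true) (hlb : goodPairs n q lb = true)
    (hg : genCheck n q la lb v0 gens = true) (hr : relCheck n q la lb rels = true)
    (hgen : Subgroup.closure {g : O | ∃ v < 2 ^ n, q v = true ∧ g = (matEquiv R).symm (refl R (vec e v))} = ⊤)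
    (f : ↥(commutator O) → (ι → ZMod 2))
    (hf : ∀ g h : ↥(commutator O), f (g * h) = f g + mat R (g : O) *ᵥ f h) :
    ∃ v : ι → ZMod 2, ∀ g : ↥(commutator O), f g = mat R (g : O) *ᵥ v - v := by
  obtain ⟨hA, hAc⟩ := pairElt_spec hq hla
  obtain ⟨hB, hBc⟩ := pairElt_spec hq hlb
  set A := pairElt e R la
  set B := pairElt e R lb
  simp only [relCheck, Bool.and_eq_true, List.all_eq_true, List.mem_range, Bool.or_eq_true, bne_iff_ne, beq_iff_eq,
    List.any_eq_true] at hr
  obtain ⟨⟨hfix, hrel⟩, hkill⟩ := hr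
  -- normalise at the first generator
  obtain ⟨v, hv⟩ : ∃ v, mat R A *ᵥ v - v = f ⟨A, hAc⟩ := by
    refine (Finite.injective_iff_surjective (f := fun v => mat R A *ᵥ v - v)).1 (fun x y hxy => ?_) _
    obtain ⟨m, hm, hmx⟩ := vec_surj e (x - y)
    rcases hfix m hm with h | h
    · rw [h, vec_zero] at hmx
      exact sub_eq_zero.1 hmx.symm
    · refine absurd (vec_inj e (hA m hm).1 hm ?_) h
      rw [← (hA m hm).2, hmx, Matrix.mulVec_sub, sub_eq_sub_iff_sub_eq_sub]
      have : mat R A *ᵥ x - x = mat R A *ᵥ y - y := hxy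
      linear_combination (norm := abel) this
  set f' : ↥(commutator O) → (ι → ZMod 2) := fun g => f g - (mat R (g : O) *ᵥ v - v) with hf'
  have hco : ∀ g h, f' (g * h) = f' g + mat R (g : O) *ᵥ f' h := by
    intro g h
    simp only [hf', hf]
    rw [Matrix.mulVec_sub, Matrix.mulVec_sub, Matrix.mulVec_mulVec,
      show mat R ((g * h : ↥(commutator O)) : O) = mat R (g : O) * mat R (h : O) from rfl]
    abel
  suffices ∀ g, f' g = 0 from ⟨v, fun g => sub_eq_zero.1 (this g)⟩
  have h1 : f' 1 = 0 := by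
    have := hco 1 1
    rwa [one_mul, show mat R ((1 : ↥(commutator O)) : O) = 1 from rfl, Matrix.one_mulVec, left_eq_add] at this
  have hfA : f' ⟨A, hAc⟩ = 0 := by simp only [hf', hv, sub_self]
  -- the value at the second generator
  obtain ⟨xb, hxb, hxbe⟩ := vec_surj e (f' ⟨B, hBc⟩)
  let gw : List Bool → ↥(commutator O) := fun w => (w.map fun c => if c then ⟨B, hBc⟩ else ⟨A, hAc⟩).prod
  have hw : ∀ w, Act e R (gw w : O) (wordAct q la lb w) ∧ wordVal q la lb xb w < 2 ^ n ∧
      f' (gw w) = vec e (wordVal q la lb xb w) := by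
    intro w
    induction w with
    | nil => exact ⟨Act.one, Nat.two_pow_pos n, by rw [show gw [] = 1 from rfl, h1]; exact (vec_zero e).symm⟩
    | cons c w ih =>
      obtain ⟨i1, i2, i3⟩ := ih
      have ha : Act e R ((if c then (⟨B, hBc⟩ : ↥(commutator O)) else ⟨A, hAc⟩ : ↥(commutator O)) : O)
          (pairAct q (if c then lb else la)) := by
        cases c
        · exact hA
        · exact hB
      have hx : (if c then xb else 0) < 2 ^ n := by
        cases c
        · exact Nat.two_pow_pos n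
        · exact hxb
      refine ⟨ha.mul i1, Nat.xor_lt_two_pow hx (ha _ i2).1, ?_⟩
      show f' ((if c then (⟨B, hBc⟩ : ↥(commutator O)) else ⟨A, hAc⟩) * gw w) = vec e (_ ^^^ _)
      rw [hco, i3, (ha _ i2).2, vec_xor]
      congr 1
      cases c
      · exact hfA.trans (vec_zero e).symm
      · exact hxbe.symm
  have hB0 : f' ⟨B, hBc⟩ = 0 := by
    rcases hkill xb hxb with h | ⟨w, hw', hne⟩
    · rw [← hxbe, h, vec_zero]
    · exfalso
      obtain ⟨a1, a2, a3⟩ := hw (letters 256 w.1)
      obtain ⟨b1, b2, b3⟩ := hw (letters 256 w.2)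
      have hone : gw (letters 256 w.1) = gw (letters 256 w.2) := Subtype.ext (a1.eq b1 fun j hj => hrel w hw' j hj)
      rw [hone] at a3
      exact hne (vec_inj e a2 b2 (a3.symm.trans b3))
  -- the kernel
  let K : Subgroup ↥(commutator O) :=
    { carrier := {g | f' g = 0}
      one_mem' := h1
      mul_mem' := fun {g h} hg hh => by
        show f' (g * h) = 0
        rw [hco, show f' g = 0 from hg, show f' h = 0 from hh, Matrix.mulVec_zero, add_zero]
      inv_mem' := fun {g} hg => by
        have := hco g⁻¹ g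
        rw [inv_mul_cancel, h1, show f' g = 0 from hg, Matrix.mulVec_zero, add_zero] at this
        exact this.symm }
  set K' := K.map (commutator O).subtype
  have hK : ∀ w, (gw w : O) ∈ K' := fun w => by
    refine ⟨gw w, list_prod_mem fun x hx => ?_, rfl⟩
    obtain ⟨c, -, rfl⟩ := List.mem_map.1 hx
    cases c
    · exact hfA
    · exact hB0
  simp only [genCheck, Bool.and_eq_true, Nat.blt_eq, List.all_eq_true, List.mem_range, Bool.or_eq_true,
    Bool.not_eq_true', List.any_eq_true, beq_iff_eq] at hg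
  obtain ⟨⟨hq0, hv0⟩, hpairs⟩ := hg
  set r : ℕ → O := fun u => (matEquiv R).symm (refl R (vec e u))
  have hrr : ∀ u < 2 ^ n, q u = true → r u * r u = 1 := fun u hu hqu => by
    show (matEquiv R).symm _ * (matEquiv R).symm _ = 1
    rw [← map_mul, refl_mul_self (by rw [hq _ hu, hqu]; exact one_ne_zero), map_one]
  have h0 : ∀ u < 2 ^ n, q u = true → r v0 * r u ∈ K' := by
    intro u hu hqu
    rcases hpairs u hu with h | ⟨p, hp, -, hp'⟩
    · rw [hqu] at h; exact absurd h (by decide)
    · have he := (hw (letters 256 p.2)).1.eq ((refl_act hq hv0 hq0).mul (refl_act hq hu hqu)) fun j hj => hp' j hj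
      exact he ▸ hK _
  set S := {g : O | ∃ u < 2 ^ n, q u = true ∧ g = r u}
  set P := Subgroup.closure {g : O | ∃ a ∈ S, ∃ b ∈ S, g = a * b}
  have hPK : P ≤ K' := (Subgroup.closure_le _).2 (by
    rintro _ ⟨_, ⟨a, ha, qa, rfl⟩, _, ⟨b, hb, qb, rfl⟩, rfl⟩
    show r a * r b ∈ K'
    have := mul_mem (inv_mem (h0 a ha qa)) (h0 b hb qb)
    rwa [mul_inv_rev, inv_eq_of_mul_eq_one_right (hrr a ha qa), inv_eq_of_mul_eq_one_right (hrr v0 hv0 hq0),
      mul_assoc, ← mul_assoc (r v0), hrr v0 hv0 hq0, one_mul] at this)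
  have hsS : ∀ s ∈ S, s * s = 1 := by rintro _ ⟨u, hu, hqu, rfl⟩; exact hrr u hu hqu
  have hN : P.Normal := by
    rw [← Subgroup.normalizer_eq_top_iff, eq_top_iff, ← hgen, Subgroup.closure_le]
    intro s hs
    have hi := inv_eq_of_mul_eq_one_right (hsS s hs)
    have key : ∀ x ∈ P, s * x * s⁻¹ ∈ P := by
      intro x hx
      have hle : P ≤ P.comap (MulAut.conj s).toMonoidHom := (Subgroup.closure_le _).2 (by
        rintro _ ⟨a, ha, b, hb, rfl⟩
        show s * (a * b) * s⁻¹ ∈ P
        have := mul_mem (Subgroup.subset_closure ⟨s, hs, a, ha, rfl⟩ : s * a ∈ P)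
          (Subgroup.subset_closure ⟨b, hb, s, hs, rfl⟩ : b * s ∈ P)
        rw [hi]
        simpa only [mul_assoc] using this)
      exact hle hx
    rw [SetLike.mem_coe, Subgroup.mem_normalizer_iff]
    refine fun x => ⟨key x, fun hx => ?_⟩
    have := key _ hx
    rwa [hi, show s * (s * x * s) * s = (s * s) * x * (s * s) by simp only [mul_assoc], hsS s hs, one_mul, mul_one] at this
  have hle : commutator O ≤ P := by
    set π := QuotientGroup.mk' P
    have hcyc : ∀ g, π g ∈ Subgroup.zpowers (π (r v0)) := by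
      have : Subgroup.closure S ≤ (Subgroup.zpowers (π (r v0))).comap π := (Subgroup.closure_le _).2 (by
        intro s hs
        show π s ∈ Subgroup.zpowers (π (r v0))
        have h : π (r v0 * s) = 1 := (QuotientGroup.eq_one_iff _).2 (Subgroup.subset_closure ⟨_, ⟨v0, hv0, hq0, rfl⟩, s, hs, rfl⟩)
        rw [map_mul] at h
        rw [eq_inv_of_mul_eq_one_right h]
        exact inv_mem (Subgroup.mem_zpowers _))
      rw [hgen] at this
      exact fun g => this (Subgroup.mem_top g)
    rw [commutator_def, Subgroup.commutator_le]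
    intro x _ y _
    refine (QuotientGroup.eq_one_iff _).1 ?_
    show π ⁅x, y⁆ = 1
    rw [map_commutatorElement, commutatorElement_eq_one_iff_commute]
    obtain ⟨i, hi⟩ := hcyc x
    obtain ⟨j, hj⟩ := hcyc y
    rw [← hi, ← hj]
    exact (Commute.refl _).zpow_zpow i j
  intro g
  obtain ⟨g', hg', e'⟩ := hPK (hle g.2)
  rw [← Subtype.ext e']
  exact hg'

end

end Cfsg.Agent.Lib.OrthCocycle
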