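import Cfsg.Agent.Lib.OrthCocycle.Checks

/-! Certificates in dimension eight. -/

set_option autoImplicit false
set_option maxRecDepth 100000

namespace Cfsg.Agent.Lib.OrthCocycle

theorem rel_eight : relCheck 8 qEight laEight lbEight relEight = true := by decide +kernel

end Cfsg.Agent.Lib.OrthCocycle
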