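import Cfsg.Agent.Lib.OrthCocycle.Checks

/-! The isometries in dimension four are products of reflections. -/

set_option autoImplicit false
set_option maxRecDepth 100000

namespace Cfsg.Agent.Lib.OrthCocycle

/-- The action of the linear map with the given images of the unit vectors. -/
def combFour (a b c d x : ℕ) : ℕ :=
  (if x.testBit 0 then a else 0) ^^^ (if x.testBit 1 then b else 0) ^^^ (if x.testBit 2 then c else 0) ^^^ (if x.testBit 3 then d else 0)

/-- The images of the unit vectors under the isometries. -/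
def imgFour : List (List ℕ) := [[1,2,4,8],[2,1,4,8],[1,2,4,12],[1,7,4,13],[7,2,4,14],[1,2,12,8],[1,11,13,8],[11,2,14,8],[1,2,8,4],[1,15,9,5],[15,2,10,6],[2,1,4,12],[2,7,4,14],[7,1,4,13],[2,1,12,8],[2,11,14,8],[11,1,13,8],[2,1,8,4],[2,15,10,6],[15,1,9,5],[1,7,4,9],[7,2,4,10],[1,2,8,12],[1,15,9,12],[15,2,10,12],[1,2,12,4],[1,11,13,5],[11,2,14,6],[1,7,9,13],[1,11,8,13],[11,7,14,13],[1,7,13,4],[1,15,12,5],[15,7,10,3],[7,2,10,14],[7,11,13,14],[11,2,8,14],[7,2,14,4],[7,15,9,3],[15,2,12,6],[1,11,5,8],[11,2,6,8],[15,11,3,6],[11,15,3,5],[1,15,5,9],[15,2,6,10],[2,7,4,10],[7,1,4,9],[2,1,8,12],[2,15,10,12],[15,1,9,12],[2,1,12,4],[2,11,14,6],[11,1,13,5],[2,7,10,14],[2,11,8,14],[11,7,13,14],[2,7,14,4],[2,15,12,6],[15,7,9,3],[7,1,9,13],[7,11,14,13],[11,1,8,13],[7,1,13,4],[7,15,10,3],[15,1,12,5],[2,11,6,8],[11,1,5,8],[15,11,3,5],[11,15,3,6],[2,15,6,10],[15,1,5,9],[1,7,13,9],[1,15,12,9],[15,7,10,9],[1,7,9,4],[1,11,8,5],[11,7,14,3],[7,2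,14,10],[7,15,9,10],[15,2,12,10],[7,2,10,4],[7,11,13,3],[11,2,8,6],[1,15,5,12],[15,2,6,12],[1,11,5,13],[11,2,6,14],[11,7,3,13],[15,11,6,3],[11,15,6,5],[15,7,3,10],[7,11,3,14],[15,11,5,6],[11,15,5,3],[7,15,3,9],[2,7,14,10],[2,15,12,10],[15,7,9,10],[2,7,10,4],[2,11,8,6],[11,7,13,3],[7,1,13,9],[7,15,10,9],[15,1,12,9],[7,1,9,4],[7,11,14,3],[11,1,8,5],[2,15,6,12],[15,1,5,12],[2,11,6,14],[11,1,5,13],[11,7,3,14],[15,11,5,3],[11,15,5,6],[15,7,3,9],[7,11,3,13],[15,11,6,5],[11,15,6,3],[7,15,3,10]]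

theorem img_ok : ((imgFour.zip tableFour).all fun p => p.2.all (fun v => Nat.blt v 16 && qFour v) &&
    ([1, 2, 4, 8].map fun x => p.2.foldr (rfl' qFour) x) == p.1) = true := by decide +kernel

theorem img_length : imgFour.length = tableFour.length := by decide +kernel

/-- Whether the images of two unit vectors are compatible with the form. -/
def pairOk (a b : ℕ) (x y : ℕ) : Bool := qFour a == qFour x && qFour (a ^^^ b) == qFour (x ^^^ y)

theorem iso_four : ((List.range 16).all fun a => (List.range 16).all fun b => !(pairOk a b 1 2 && pairOk b a 2 1) ||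
    (List.range 16).all fun c => !(pairOk c a 4 1 && pairOk c b 4 2) || (List.range 16).all fun d =>
    !(pairOk d a 8 1 && pairOk d b 8 2 && pairOk d c 8 4) || imgFour.contains [a, b, c, d]) = true := by
  decide +kernel

end Cfsg.Agent.Lib.OrthCocycle
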